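import Cfsg.Agent.KSG.OrthInvol

set_option autoImplicit false

namespace CL.OrthH1

open Module QuadraticMap CL.Orth

variable {V : Type*} [AddCommGroup V] [Module (ZMod 2) V] {Q : QuadraticForm (ZMod 2) V}

theorem add_self (x : V) : x + x = 0 := by
  rw [← two_smul (ZMod 2) x, show (2 : ZMod 2) = 0 from rfl, zero_smul]

theorem neg_self (x : V) : -x = x := neg_eq_of_add_eq_zero_left (add_self x)

theorem refl_ap {u : V} (hu : Q u = 1) (x : V) : (refl Q u).1 x = x + polar Q u x • u := by
  rw [refl_apply, hu, inv_one, one_mul, sub_eq_add_neg, neg_self]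

theorem polar_self2 (u : V) : polar Q u u = 0 := by
  rw [polar_self', show (2 : ZMod 2) = 0 from rfl, zero_mul]

theorem rot_apply {u w : V} (hu : Q u = 1) (hw : Q w = 1) (h : polar Q u w = 1) (x : V) :
    (refl Q u * refl Q w).1 x
      = x + polar Q w x • w + (polar Q u x + polar Q w x) • u := by
  rw [O_mul_apply, refl_ap hw, refl_ap hu, polar_add_right, polar_smul_right', h, mul_one]

theorem rot_cube {u w : V} (hu : Q u = 1) (hw : Q w = 1) (h : polar Q u w = 1) :
    (refl Q u * refl Q w) * ((refl Q u * refl Q w) * (refl Q u * refl Q w)) = 1 := by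
  have h' : polar Q w u = 1 := by rw [polar_comm]; exact h
  have e1 := conj_refl (refl Q u) w
  have e2 := conj_refl (refl Q w) u
  rw [refl_ap hu, h, one_smul, refl_inv] at e1
  rw [refl_ap hw, h', one_smul, refl_inv, add_comm] at e2
  calc _ = (refl Q u * refl Q w * refl Q u) * (refl Q w * refl Q u * refl Q w) := by group
    _ = 1 := by rw [e1, e2, refl_mul_self]

theorem rot_mem {u w : V} (hu : Q u = 1) (hw : Q w = 1) (h : polar Q u w = 1) :
    refl Q u * refl Q w ∈ commutator (O Q) := by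
  have h3 := rot_cube hu hw h
  have : refl Q u * refl Q w = refl Q w * refl Q u * (refl Q w)⁻¹ * (refl Q u)⁻¹ := by
    rw [refl_inv, refl_inv]
    have e : (refl Q w * refl Q u * refl Q w * refl Q u) *
        ((refl Q u * refl Q w) * (refl Q u * refl Q w)) = 1 := by
      calc _ = refl Q w * (refl Q u * (refl Q w * (refl Q u * refl Q u) * refl Q w) * refl Q u)
          * refl Q w := by group
        _ = 1 := by simp only [refl_mul_self, mul_one]
    exact mul_right_cancel (h3.trans e.symm)
  rw [this]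
  exact Subgroup.commutator_mem_commutator (Subgroup.mem_top _) (Subgroup.mem_top _)

section Cocycle

variable {H : Subgroup (O Q)} {f : H → V} (hf : ∀ g h : H, f (g * h) = f g + g.1.1 (f h))
include hf

theorem coc_one : f 1 = 0 := by
  have := hf 1 1
  rw [mul_one] at this
  exact left_eq_add.1 this

theorem coc_rot {u w : V} (hu : Q u = 1) (hw : Q w = 1) (h : polar Q u w = 1)
    (r : H) (hr : r.1 = refl Q u * refl Q w) :
    f r = polar Q u (f r) • w + polar Q w (f r) • u := by
  have h' : polar Q w u = 1 := by rw [polar_comm]; exact h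
  have h3 : r * (r * r) = 1 := Subtype.ext (by
    simp only [Subgroup.coe_mul, hr]; exact rot_cube hu hw h)
  have h4 := hf r (r * r)
  rw [h3, coc_one hf, hf, map_add, hr] at h4
  generalize f r = a at h4 ⊢
  simp only [rot_apply hu hw h, polar_add_right, polar_smul_right', h, h', polar_self2] at h4
  generalize polar Q u a = p at h4 ⊢
  generalize polar Q w a = q at h4 ⊢
  rw [← sub_eq_zero, h4]
  clear h4
  match_scalars
  all_goals first | decide | (revert p q; decide)

theorem coc_inv (g : H) : f g⁻¹ = - (g⁻¹).1.1 (f g) := by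
  have := hf g⁻¹ g
  rw [inv_mul_cancel, coc_one hf] at this
  exact eq_neg_of_add_eq_zero_left this.symm

/-- The elements on which a cocycle vanishes. -/
def cocKer : Subgroup (O Q) where
  carrier := {g | ∃ h : g ∈ H, f ⟨g, h⟩ = 0}
  one_mem' := ⟨H.one_mem, coc_one hf⟩
  mul_mem' := by
    rintro a b ⟨ha, ha'⟩ ⟨hb, hb'⟩
    refine ⟨H.mul_mem ha hb, ?_⟩
    have := hf ⟨a, ha⟩ ⟨b, hb⟩
    rw [ha', hb', map_zero, add_zero] at this
    exact this
  inv_mem' := by
    rintro a ⟨ha, ha'⟩
    refine ⟨H.inv_mem ha, ?_⟩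
    have := coc_inv hf ⟨a, ha⟩
    rw [ha', map_zero, neg_zero] at this
    exact this

end Cocycle

theorem zcases (a : ZMod 2) : a = 0 ∨ a = 1 := by revert a; decide

theorem h1_vanish [FiniteDimensional (ZMod 2) V] (hQ : (polarBilin Q).Nondegenerate)
    (hR : reflGroup Q = ⊤) {ι : Type} [Fintype ι] [DecidableEq ι] (u d : ι → V) (i0 i1 : ι)
    (h01 : i0 ≠ i1) (hQu : ∀ i, Q (u i) = 1)
    (hd : ∀ i j, polar Q (u i) (d j) = if i = j then 1 else 0)
    (h0 : ∀ i, i ≠ i0 → polar Q (u i0) (u i) = 1) (h1 : ∀ i, i ≠ i1 → polar Q (u i1) (u i) = 1)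
    (ht : V → ℕ)
    (hgen : ∀ w, Q w = 1 → (∃ i, w = u i) ∨ ∃ i, polar Q (u i) w = 1 ∧ ht (w + u i) < ht w)
    (f : commutator (O Q) → V) (hf : ∀ g h, f (g * h) = f g + g.1.1 (f h)) :
    ∃ v : V, ∀ g, f g = g.1.1 v - v := by
  classical
  have hmem : ∀ i, refl Q (u i0) * refl Q (u i) ∈ commutator (O Q) := by
    intro i
    by_cases hi : i = i0
    · rw [hi, refl_mul_self]; exact Subgroup.one_mem _
    · exact rot_mem (hQu _) (hQu _) (h0 i hi)
  let r : ι → commutator (O Q) := fun i => ⟨_, hmem i⟩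
  let c : ι → ZMod 2 := fun i => if i = i0 then
      polar Q (u i0) (f (r i1)) + polar Q (u i1) (f (r i1)) else polar Q (u i0) (f (r i))
  let v : V := ∑ j, c j • d j
  have hv : ∀ i, polar Q (u i) v = c i := by
    intro i
    have : polar Q (u i) v = polarBilin Q (u i) (∑ j, c j • d j) := rfl
    rw [this, map_sum]
    simp only [map_smul, polarBilin_apply_apply, hd, smul_eq_mul, mul_ite, mul_one, mul_zero]
    simp
  let f' : commutator (O Q) → V := fun g => f g - (g.1.1 v - v)
  have hf' : ∀ g h, f' (g * h) = f' g + g.1.1 (f' h) := by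
    intro g h
    have : (g * h).1.1 v = g.1.1 (h.1.1 v) := rfl
    simp only [f', hf, map_sub, this]
    abel
  have hr : ∀ i, i ≠ i0 → f' (r i) = (c i0 + polar Q (u i0) (f (r i)) + polar Q (u i) (f (r i)))
      • u i0 := by
    intro i hi
    have e := coc_rot hf (hQu i0) (hQu i) (h0 i hi) (r i) rfl
    have hc : c i = polar Q (u i0) (f (r i)) := if_neg hi
    show f (r i) - ((refl Q (u i0) * refl Q (u i)).1 v - v) = _
    rw [rot_apply (hQu i0) (hQu i) (h0 i hi), hv, hv, hc]
    generalize polar Q (u i0) (f (r i)) = p at e ⊢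
    generalize polar Q (u i) (f (r i)) = q at e ⊢
    rw [e]
    clear e
    generalize c i0 = s
    match_scalars
    all_goals first | decide | (revert p q s; decide)
  have hr1 : f' (r i1) = 0 := by
    rw [hr i1 h01.symm]
    have : c i0 = polar Q (u i0) (f (r i1)) + polar Q (u i1) (f (r i1)) := if_pos rfl
    rw [this]
    generalize polar Q (u i0) (f (r i1)) = p
    generalize polar Q (u i1) (f (r i1)) = q
    rw [show p + q + p + q = 0 by revert p q; decide, zero_smul]
  have hri : ∀ i, f' (r i) = 0 := by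
    intro i
    by_cases hi : i = i0
    · have : r i = 1 := Subtype.ext (by simp only [r, hi]; exact refl_mul_self _)
      rw [this, coc_one hf']
    by_cases hi1 : i = i1
    · rw [hi1, hr1]
    obtain ⟨α, hα⟩ : ∃ α : ZMod 2, f' (r i) = α • u i0 := ⟨_, hr i hi⟩
    have hs : ((r i1)⁻¹ * r i).1 = refl Q (u i1) * refl Q (u i) := by
      show (refl Q (u i0) * refl Q (u i1))⁻¹ * (refl Q (u i0) * refl Q (u i)) = _
      rw [mul_inv_rev, refl_inv, refl_inv, mul_assoc, refl_mul_refl_mul]
    have e := coc_rot hf' (hQu i1) (hQu i) (h1 i hi1) _ hs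
    generalize polar Q (u i1) (f' ((r i1)⁻¹ * r i)) = p at e
    generalize polar Q (u i) (f' ((r i1)⁻¹ * r i)) = q at e
    rw [hf', coc_inv hf', hr1, map_zero, neg_zero, zero_add, hα, map_smul] at e
    have e2 : ((r i1)⁻¹).1.1 (u i0) = u i0 + u i1 := by
      show (refl Q (u i0) * refl Q (u i1))⁻¹.1 (u i0) = _
      rw [mul_inv_rev, refl_inv, refl_inv, O_mul_apply, refl_ap (hQu i0), polar_self2, zero_smul,
        add_zero, refl_ap (hQu i1), h1 i0 h01, one_smul]
    rw [e2] at e
    have e3 := congrArg (fun x => polar Q x (d i0)) e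
    simp only [polar_smul_left, polar_add_left, hd, if_pos, if_neg hi, if_neg h01.symm, smul_eq_mul,
      mul_zero, add_zero, mul_one] at e3
    rw [hα, e3, zero_smul]
  let K := cocKer hf'
  have hK : ∀ w, Q w = 1 → refl Q (u i0) * refl Q w ∈ K := by
    intro w
    induction hn : ht w using Nat.strong_induction_on generalizing w with
    | _ n ih =>
      intro hw
      rcases hgen w hw with ⟨i, rfl⟩ | ⟨i, hi, hlt⟩
      · exact ⟨hmem i, hri i⟩
      · have hw' : Q (w + u i) = 1 := by
          rw [Q_add, hw, hQu, polar_comm, hi]; rfl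
        have h2 := ih _ (hn ▸ hlt) (w + u i) rfl hw'
        have h3 : refl Q (u i0) * refl Q (u i) ∈ K := ⟨hmem i, hri i⟩
        have e1 := conj_refl (refl Q (u i)) (w + u i)
        rw [refl_ap (hQu i), polar_add_right, hi, polar_self2, add_zero, one_smul, add_assoc,
          add_self, add_zero, refl_inv] at e1
        have e2 : refl Q (u i0) * refl Q w = (refl Q (u i0) * refl Q (u i)) *
            (refl Q (u i0) * refl Q (w + u i))⁻¹ * (refl Q (u i0) * refl Q (u i)) := by
          rw [← e1, mul_inv_rev, refl_inv, refl_inv]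
          simp only [mul_assoc, refl_mul_refl_mul]
        rw [e2]
        exact K.mul_mem (K.mul_mem h3 (K.inv_mem h2)) h3
  have hall : ∀ g : O Q, g ∈ K ∨ refl Q (u i0) * g ∈ K := by
    intro g
    refine reflGroup_induction (P := fun g => g ∈ K ∨ refl Q (u i0) * g ∈ K) (Or.inl K.one_mem) ?_
      (hR ▸ Subgroup.mem_top g)
    intro w g hw _ hg
    have hw1 := hK w ((zcases _).resolve_left hw)
    rcases hg with hg | hg
    · right; rw [← mul_assoc]; exact K.mul_mem hw1 hg
    · left
      have := K.mul_mem (K.inv_mem hw1) hg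
      rwa [mul_inv_rev, refl_inv, refl_inv, mul_assoc, refl_mul_refl_mul] at this
  refine ⟨v, fun g => ?_⟩
  rcases hall g.1 with ⟨_, hg⟩ | ⟨hg, -⟩
  · exact sub_eq_zero.1 hg
  · exfalso
    have h2 := (mem_commutator_iff_dsign hQ hR _).1 hg
    have hne : Q (u i0) ≠ 0 := by rw [hQu]; exact one_ne_zero
    rw [dsign_refl_mul hQ _ hne, (mem_commutator_iff_dsign hQ hR _).1 g.2] at h2
    exact absurd h2 (by decide)

/-- Matrix form. -/
theorem h1_vanish_matrix {κ : Type} [Fintype κ] [DecidableEq κ]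
    {Q : QuadraticForm (ZMod 2) (κ → ZMod 2)}
    (h : ∀ f : commutator (O Q) → (κ → ZMod 2), (∀ g h, f (g * h) = f g + g.1.1 (f h)) →
      ∃ v, ∀ g, f g = g.1.1 v - v)
    (f : Cfsg.Omega (ZMod 2) ⇑Q → (κ → ZMod 2))
    (hf : ∀ g h, f (g * h) = f g + Matrix.mulVec (((g : Cfsg.isometryGroup (ZMod 2) ⇑Q) :
      GL κ (ZMod 2)) : Matrix κ κ (ZMod 2)) (f h)) :
    ∃ v, ∀ g : Cfsg.Omega (ZMod 2) ⇑Q, f g = Matrix.mulVec (((g : Cfsg.isometryGroup (ZMod 2) ⇑Q) :
      GL κ (ZMod 2)) : Matrix κ κ (ZMod 2)) v - v := by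
  let e : commutator (O Q) → Cfsg.Omega (ZMod 2) ⇑Q := fun g =>
    ⟨(toO Q).symm g.1, map_mem_commutator (toO Q).symm.toMonoidHom g.2⟩
  obtain ⟨v, hv⟩ := h (fun g => f (e g)) (fun g h => by
    have : e (g * h) = e g * e h := Subtype.ext (map_mul (toO Q).symm _ _)
    simp only [this, hf]
    congr 1
    exact toO_symm_mulVec _ _)
  refine ⟨v, fun g => ?_⟩
  have := hv ⟨toO Q g.1, map_mem_commutator (toO Q).toMonoidHom g.2⟩
  have he : e ⟨toO Q g.1, map_mem_commutator (toO Q).toMonoidHom g.2⟩ = g :=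
    Subtype.ext ((toO Q).symm_apply_apply _)
  simp only [he] at this
  exact this

end CL.OrthH1
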